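import Mathlib
import Cfsg.Agent.LThreeModel.SU3
import Cfsg.Agent.S0278
import Cfsg.Agent.Blocks.Central

/-!
# Involutions of `SU₃(q)`, `q` odd
-/

set_option autoImplicit false
set_option linter.unusedSectionVars false

namespace Cfsg.Agent.H125.SU3

open scoped Pointwise
open Matrix Cfsg Cfsg.Agent.Phan Cfsg.Agent.LThreeExt.SU3 Cfsg.Agent.LThreeModel.SU3
open Cfsg.Agent.LieClassical.GUOrder (frob frob_apply mul_map_eq_one_iff two_le card_ker_pow)

universe u

variable {F : Type u} [Field F] [Fintype F] {q : ℕ}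

theorem two_ne (hF : Fintype.card F = q ^ 2) (hq : Odd q) : (2 : F) ≠ 0 := by
  intro h
  have h1 : CharP F 2 := by
    have : ringChar F = 2 := by
      have h3 : ringChar F ∣ 2 := (ringChar.spec F 2).1 (by exact_mod_cast h)
      rcases (Nat.dvd_prime Nat.prime_two).1 h3 with h4 | h4
      · exact absurd h4 (CharP.ringChar_ne_one)
      · exact h4
    rw [← this]; exact ringChar.charP F
  obtain ⟨n, -, hn⟩ := FiniteField.card F 2
  rw [hF] at hn
  have h5 : Odd (q ^ 2) := hq.pow
  rw [hn] at h5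
  rw [← Nat.not_even_iff_odd] at h5
  exact h5 ((Nat.even_pow.2 ⟨even_two, n.ne_zero⟩))

/-- an involution of `SU₃` commuting with two coordinate involutions is one of the three -/
theorem cases_of_comm (hF : Fintype.card F = q ^ 2) (h2 : (2 : F) ≠ 0) {y : SU 3 F q} (hy1 : y ≠ 1)
    (hy : y * y = 1) (h0 : y * dg hF 0 = dg hF 0 * y) (h1 : y * dg hF 1 = dg hF 1 * y) :
    y = dg hF 0 ∨ y = dg hF 1 ∨ y = dg hF 2 := by
  have a10 := comm_dg hF h2 h0 (i := 1) (by decide)
  have a20 := comm_dg hF h2 h0 (i := 2) (by decide)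
  have a21 := comm_dg hF h2 h1 (i := 2) (by decide)
  have hm : mat y * mat y = 1 := by rw [← mat_mul, hy, mat_one]
  have hdet := mat_det y
  have hdiag : mat y = !![mat y 0 0, 0, 0; 0, mat y 1 1, 0; 0, 0, mat y 2 2] := by
    ext i j
    fin_cases i <;> fin_cases j <;> simp [a10, a20, a21]
  have e0 : mat y 0 0 = 1 ∨ mat y 0 0 = -1 := by
    have := congrFun (congrFun hm 0) 0
    rw [hdiag] at this
    simp [Matrix.mul_apply, Fin.sum_univ_three] at this
    exact mul_self_eq_one_iff.1 this
  have e1 : mat y 1 1 = 1 ∨ mat y 1 1 = -1 := by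
    have := congrFun (congrFun hm 1) 1
    rw [hdiag] at this
    simp [Matrix.mul_apply, Fin.sum_univ_three] at this
    exact mul_self_eq_one_iff.1 this
  have e2 : mat y 2 2 = 1 ∨ mat y 2 2 = -1 := by
    have := congrFun (congrFun hm 2) 2
    rw [hdiag] at this
    simp [Matrix.mul_apply, Fin.sum_univ_three] at this
    exact mul_self_eq_one_iff.1 this
  have hne : (-1 : F) ≠ 1 := by
    intro h
    apply h2
    linear_combination -h
  rw [hdiag, Matrix.det_fin_three] at hdet
  simp at hdet
  have key : ∀ c : Fin 3, mat y = (Matrix.diagonal fun i => if i = c then 1 else -1) → y = dg hF c := by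
    intro c hc
    apply mat_inj
    rw [mat_dg, hc]
  rcases e0 with e0 | e0 <;> rcases e1 with e1 | e1 <;> rcases e2 with e2 | e2 <;>
    rw [e0, e1, e2] at hdet hdiag
  · exfalso
    apply hy1
    apply mat_inj
    rw [hdiag, mat_one]
    ext i j
    fin_cases i <;> fin_cases j <;> simp
  · exfalso; apply hne; linear_combination hdet
  · exfalso; apply hne; linear_combination hdet
  · left
    apply key
    rw [hdiag]
    ext i j
    fin_cases i <;> fin_cases j <;> simp
  · exfalso; apply hne; linear_combination hdet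
  · right; left
    apply key
    rw [hdiag]
    ext i j
    fin_cases i <;> fin_cases j <;> simp
  · right; right
    apply key
    rw [hdiag]
    ext i j
    fin_cases i <;> fin_cases j <;> simp
  · exfalso; apply hne; linear_combination hdet

/-- an element of order two commutes with another one, if some four-group exists -/
theorem exists_comm_invol {G : Type*} [Group G] [Finite G] {a b t : G} (ha : a ≠ 1) (hb : b ≠ 1)
    (hab : a ≠ b) (haa : a * a = 1) (hbb : b * b = 1) (hc : a * b = b * a) (ht : t ≠ 1) (htt : t * t = 1) :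
    ∃ x, x ≠ 1 ∧ x * x = 1 ∧ x ≠ t ∧ x * t = t * x := by
  classical
  have h2 : Fact (Nat.Prime 2) := ⟨Nat.prime_two⟩
  -- the four-group
  let V : Subgroup G :=
    { carrier := {x | x = 1 ∨ x = a ∨ x = b ∨ x = a * b}
      one_mem' := Or.inl rfl
      mul_mem' := by
        have h4 : b * a = a * b := hc.symm
        have h5 : a * (a * b) = b := by rw [← mul_assoc, haa, one_mul]
        have h6 : b * (a * b) = a := by rw [← mul_assoc, ← hc, mul_assoc, hbb, mul_one]
        have h7 : a * b * a = b := by rw [mul_assoc, h4, h5]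
        have h8 : a * b * b = a := by rw [mul_assoc, hbb, mul_one]
        have h9 : a * b * (a * b) = 1 := by rw [← mul_assoc, h7, hbb]
        rintro x y (rfl | rfl | rfl | rfl) (rfl | rfl | rfl | rfl) <;>
          simp only [one_mul, mul_one, Set.mem_ofPred_eq, haa, hbb, h4, h5, h6, h7, h8, h9, true_or,
            or_true]
      inv_mem' := by
        have i1 : a⁻¹ = a := inv_eq_of_mul_eq_one_left haa
        have i2 : b⁻¹ = b := inv_eq_of_mul_eq_one_left hbb
        rintro x (rfl | rfl | rfl | rfl)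
        · simp
        · rw [i1]; right; left; rfl
        · rw [i2]; right; right; left; rfl
        · rw [_root_.mul_inv_rev, i1, i2, ← hc]; right; right; right; rfl }
  have hVsq : ∀ x ∈ V, x ^ 2 = 1 := by
    rintro x (rfl | rfl | rfl | rfl)
    · simp
    · rw [pow_two, haa]
    · rw [pow_two, hbb]
    · have h9 : a * b * (a * b) = 1 := by
        calc a * b * (a * b) = a * (b * a) * b := by group
          _ = (a * a) * (b * b) := by rw [← hc]; group
          _ = 1 := by rw [haa, hbb, one_mul]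
      rw [pow_two, h9]
  have hV : IsPGroup 2 V := by
    rintro ⟨x, hx⟩
    exact ⟨1, Subtype.ext (by simpa using hVsq x hx)⟩
  have hT : IsPGroup 2 (Subgroup.zpowers t) := by
    apply IsPGroup.of_card (n := 1)
    rw [Nat.card_zpowers, orderOf_eq_prime (by rw [pow_two, htt]) ht, pow_one]
  obtain ⟨P, hP⟩ := hT.exists_le_sylow
  obtain ⟨Q, hQ⟩ := hV.exists_le_sylow
  obtain ⟨g, hg⟩ := MulAction.exists_smul_eq G Q P
  have htP : t ∈ (P : Subgroup G) := hP (Subgroup.mem_zpowers t)
  have hconj : ∀ x ∈ V, g * x * g⁻¹ ∈ (P : Subgroup G) := by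
    intro x hx
    rw [← hg]
    change g * x * g⁻¹ ∈ (MulAut.conj g • (Q : Subgroup G))
    exact Subgroup.smul_mem_pointwise_smul x (MulAut.conj g) _ (hQ hx)
  -- the centre
  by_cases hz : ∀ x ∈ (P : Subgroup G), x * t = t * x
  · by_cases h3 : g * a * g⁻¹ = t
    · refine ⟨g * b * g⁻¹, ?_, ?_, ?_, hz _ (hconj b (Or.inr (Or.inr (Or.inl rfl))))⟩
      · intro h
        apply hb
        calc b = g⁻¹ * (g * b * g⁻¹) * g := by group
          _ = 1 := by rw [h]; group
      · calc g * b * g⁻¹ * (g * b * g⁻¹) = g * (b * b) * g⁻¹ := by group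
          _ = 1 := by rw [hbb]; group
      · intro h
        apply hab
        rw [← h3] at h
        simpa using h.symm
    · refine ⟨g * a * g⁻¹, ?_, ?_, h3, hz _ (hconj a (Or.inr (Or.inl rfl)))⟩
      · intro h
        apply ha
        calc a = g⁻¹ * (g * a * g⁻¹) * g := by group
          _ = 1 := by rw [h]; group
      · calc g * a * g⁻¹ * (g * a * g⁻¹) = g * (a * a) * g⁻¹ := by group
          _ = 1 := by rw [haa]; group
  · push Not at hz
    obtain ⟨y, hy, hyt⟩ := hz
    have hnt : Nontrivial (P : Subgroup G) := ⟨⟨⟨t, htP⟩, 1, fun h => ht (congrArg Subtype.val h)⟩⟩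
    have hcn : Nontrivial (Subgroup.center (P : Subgroup G)) := P.2.center_nontrivial
    have hcp : IsPGroup 2 (Subgroup.center (P : Subgroup G)) := P.2.to_subgroup _
    obtain ⟨n, hn⟩ := IsPGroup.iff_card.1 hcp
    have hdvd : 2 ∣ Nat.card (Subgroup.center (P : Subgroup G)) := by
      rw [hn]
      have h1 : n ≠ 0 := by
        rintro rfl
        rw [pow_zero] at hn
        have := Finite.one_lt_card (α := Subgroup.center (P : Subgroup G))
        omega
      exact dvd_pow_self 2 h1
    obtain ⟨⟨⟨z, hzP⟩, hzc⟩, hzo⟩ := exists_prime_orderOf_dvd_card' 2 hdvd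
    have hz2 : orderOf z = 2 := by
      rw [← hzo, Subgroup.orderOf_mk, Subgroup.orderOf_mk]
    have hzcomm : ∀ x ∈ (P : Subgroup G), x * z = z * x := by
      intro x hx
      exact congrArg Subtype.val (Subgroup.mem_center_iff.1 hzc ⟨x, hx⟩)
    refine ⟨z, ?_, ?_, ?_, (hzcomm t htP).symm⟩
    · rintro rfl
      rw [orderOf_one] at hz2
      omega
    · rw [← pow_two, ← hz2, pow_orderOf_eq_one]
    · rintro rfl
      exact hyt (hzcomm y hy)

theorem finite_SU (n : ℕ) : Finite (SU n F q) := inferInstance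

/-- all involutions of `SU₃(q)` are conjugate to a coordinate one -/
theorem exists_conj_dg (hF : Fintype.card F = q ^ 2) (h2 : (2 : F) ≠ 0) {t : SU 3 F q} (ht : t ≠ 1)
    (htt : t * t = 1) : ∃ g : SU 3 F q, g * t * g⁻¹ = dg hF 0 := by
  have h01 : dg hF 0 ≠ dg hF 1 := by
    intro h
    have h1 := dg_mul hF (a := 0) (b := 1) (c := 2) (by decide) (by decide) (by decide)
    rw [h, dg_sq] at h1
    exact dg_ne hF h2 2 h1.symm
  have hcomm : dg hF 0 * dg hF 1 = dg hF 1 * dg hF 0 := by
    rw [dg_mul hF (a := 0) (b := 1) (c := 2) (by decide) (by decide) (by decide),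
      dg_mul hF (a := 1) (b := 0) (c := 2) (by decide) (by decide) (by decide)]
  obtain ⟨x, hx, hxx, hxt, hc⟩ := exists_comm_invol (dg_ne hF h2 0) (dg_ne hF h2 1) h01 (dg_sq hF 0)
    (dg_sq hF 1) hcomm ht htt
  obtain ⟨g, hg, -⟩ := exists_conj_lift hF h2 htt hxx ht hx hxt.symm hc.symm (a := 0) (b := 1) (c := 2)
    (by decide) (by decide) (by decide)
  exact ⟨g, hg⟩

/-- the `(0,0)` entry on the centraliser of `dg 0` -/
noncomputable def ent (hF : Fintype.card F = q ^ 2) (h2 : (2 : F) ≠ 0) :
    Subgroup.centralizer ({dg hF 0} : Set (SU 3 F q)) →* F where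
  toFun g := mat g.1 0 0
  map_one' := by simp [mat_one]
  map_mul' g h := by
    have h1 := comm_dg hF h2 (Subgroup.mem_centralizer_singleton_iff.1 g.2) (i := 1) (by decide)
    have h3 := comm_dg hF h2 (Subgroup.mem_centralizer_singleton_iff.1 g.2) (i := 2) (by decide)
    rw [Subgroup.coe_mul, mat_mul, Matrix.mul_apply, Fin.sum_univ_three, h1.2, h3.2]
    ring

/-- `diag (c, c⁻¹, 1)` -/
theorem exists_diag (hF : Fintype.card F = q ^ 2) {c : F} (hc : c * c ^ q = 1) :
    ∃ g : SU 3 F q, mat g = Matrix.diagonal ![c, c⁻¹, 1] := by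
  have hc0 : c ≠ 0 := by
    rintro rfl
    rw [zero_mul] at hc
    exact zero_ne_one hc
  have h1 : c⁻¹ * (c⁻¹) ^ q = 1 := by rw [inv_pow, ← mul_inv, hc, inv_one]
  refine ⟨mk (Matrix.diagonal ![c, c⁻¹, 1]) ?_ ((mul_map_eq_one_iff hF _).2 ?_), rfl⟩
  · rw [Matrix.det_diagonal, Fin.prod_univ_three]
    simp [hc0]
  · rw [Matrix.diagonal_transpose, Matrix.diagonal_map (map_zero _), Matrix.diagonal_mul_diagonal,
      ← Matrix.diagonal_one]
    congr 1
    funext i
    fin_cases i
    · simpa [frob_apply] using hc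
    · simpa [frob_apply] using h1
    · simp

/-- the centraliser of an involution -/
theorem card_centralizer_dg (hF : Fintype.card F = q ^ 2) (h2 : (2 : F) ≠ 0) :
    Nat.card (Subgroup.centralizer ({dg hF 0} : Set (SU 3 F q))) = (q + 1) * Nat.card (SU 2 F q) := by
  set φ := (ent hF h2).toHomUnits with hφ
  have hval : ∀ g, ((φ g : Fˣ) : F) = mat g.1 0 0 := fun g => rfl
  have hz : ∀ g : Subgroup.centralizer ({dg hF 0} : Set (SU 3 F q)), ∀ i : Fin 3, i ≠ 0 →
      mat g.1 i 0 = 0 ∧ mat g.1 0 i = 0 :=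
    fun g i hi => comm_dg hF h2 (Subgroup.mem_centralizer_singleton_iff.1 g.2) hi
  rw [← Subgroup.card_mul_index φ.ker, Subgroup.index_ker]
  have hr : φ.range = (powMonoidHom (q + 1) : Fˣ →* Fˣ).ker := by
    ext c
    rw [MonoidHom.mem_range, MonoidHom.mem_ker, powMonoidHom_apply]
    constructor
    · rintro ⟨g, rfl⟩
      ext
      rw [Units.val_pow_eq_pow_val, hval, Units.val_one]
      have h1 := congrFun (congrFun (mat_eq hF g.1) 0) 0
      rw [Matrix.mul_apply, Fin.sum_univ_three] at h1
      simp only [Matrix.transpose_apply, Matrix.map_apply, frob_apply, (hz g 1 (by decide)).1,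
        (hz g 2 (by decide)).1, zero_mul, add_zero, Matrix.one_apply_eq] at h1
      rw [pow_succ, mul_comm]
      exact h1
    · intro hc
      have hc' : (c : F) * (c : F) ^ q = 1 := by
        rw [← pow_succ', ← Units.val_pow_eq_pow_val, hc, Units.val_one]
      obtain ⟨g, hg⟩ := exists_diag hF hc'
      refine ⟨⟨g, ?_⟩, ?_⟩
      · rw [Subgroup.mem_centralizer_singleton_iff]
        apply mat_inj
        rw [mat_mul, mat_mul, hg, mat_dg, Matrix.diagonal_mul_diagonal, Matrix.diagonal_mul_diagonal]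
        congr 1
        funext i
        rw [mul_comm]
      · ext
        rw [hval, hg]
        simp
  rw [hr, card_ker_pow hF, mul_comm, ← card_std hF 0]
  congr 1
  apply Nat.card_congr
  refine
    { toFun := fun g => ⟨g.1.1, ?_⟩
      invFun := fun g => ⟨⟨g.1, ?_⟩, ?_⟩
      left_inv := fun _ => rfl
      right_inv := fun _ => rfl }
  · apply mem_std_of_blk hF
    intro i
    by_cases hi : i = 0
    · subst hi
      have h1 : φ g.1 = 1 := MonoidHom.mem_ker.1 g.2
      have h3 : mat g.1.1 0 0 = 1 := by rw [← hval, h1, Units.val_one]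
      rw [if_pos rfl]
      exact ⟨h3, h3⟩
    · rw [if_neg hi]
      exact hz g.1 i hi
  · have hb := blk_of_mem_std hF g.2
    rw [Subgroup.mem_centralizer_singleton_iff]
    apply mat_inj
    rw [mat_mul, mat_mul, mat_dg]
    ext i j
    rw [Matrix.mul_diagonal, Matrix.diagonal_mul]
    by_cases hi : i = 0
    · subst hi
      by_cases hj : j = 0
      · subst hj; simp
      · have := (hb j).2
        rw [if_neg hj] at this
        rw [this]; simp
    · by_cases hj : j = 0
      · subst hj
        have := (hb i).1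
        rw [if_neg hi] at this
        rw [this]; simp
      · rw [if_neg hi, if_neg hj]; ring
  · rw [MonoidHom.mem_ker]
    ext
    rw [hval, Units.val_one]
    have := (blk_of_mem_std hF g.2 0).1
    rwa [if_pos rfl] at this

/-- S2360 -/
theorem main (hq : Odd q) (hF : Fintype.card F = q ^ 2) (t : ↥(Cfsg.SU 3 F q)) (ht : t ≠ 1)
    (ht2 : t * t = 1) :
    (∀ x : ↥(Cfsg.SU 3 F q), x ≠ 1 → x * x = 1 → ∃ g : ↥(Cfsg.SU 3 F q), g * t * g⁻¹ = x) ∧
    Nat.card {x : ↥(Cfsg.SU 3 F q) // x ≠ 1 ∧ x * x = 1} = q ^ 2 * (q ^ 2 - q + 1) ∧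
    Nat.card ↥(Subgroup.centralizer ({t} : Set ↥(Cfsg.SU 3 F q))) = q * (q + 1) * (q ^ 2 - 1) ∧
    ∀ x : ↥(Cfsg.SU 3 F q), x ≠ 1 → x * x = 1 → x ≠ t → Commute t x →
      Nat.card {y : ↥(Cfsg.SU 3 F q) // y ≠ 1 ∧ y * y = 1 ∧ y ≠ t ∧ y ≠ x ∧ Commute t y ∧ Commute x y} = 1 := by
  have h2 := two_ne hF hq
  have hq2 := two_le hF
  have hconj : ∀ x : ↥(Cfsg.SU 3 F q), x ≠ 1 → x * x = 1 → ∃ g : ↥(Cfsg.SU 3 F q), g * t * g⁻¹ = x := by
    intro x hx hxx
    obtain ⟨g, hg⟩ := exists_conj_dg hF h2 ht ht2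
    obtain ⟨k, hk⟩ := exists_conj_dg hF h2 hx hxx
    refine ⟨k⁻¹ * g, ?_⟩
    calc k⁻¹ * g * t * (k⁻¹ * g)⁻¹ = k⁻¹ * (g * t * g⁻¹) * k := by group
      _ = k⁻¹ * (k * x * k⁻¹) * k := by rw [hg, hk]
      _ = x := by group
  -- the centralizer
  have hSU2 : Nat.card (SU 2 F q) = q * (q ^ 2 - 1) := by
    have h1 := Cfsg.Agent.S0278.result hF 2 (by norm_num)
    have h3 : (∏ i ∈ Finset.range 2, (if Even i then q ^ (i + 1) + 1 else q ^ (i + 1) - 1)) =
        (q + 1) * (q ^ 2 - 1) := by
      rw [Finset.prod_range_succ, Finset.prod_range_one]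
      simp
    rw [h3] at h1
    apply Nat.eq_of_mul_eq_mul_left (show 0 < q + 1 by omega)
    rw [h1]
    norm_num
    ring
  have hSU3 : Nat.card (SU 3 F q) = q ^ 3 * (q ^ 2 - 1) * (q ^ 3 + 1) := by
    have h1 := Cfsg.Agent.S0278.result hF 3 (by norm_num)
    have h3 : (∏ i ∈ Finset.range 3, (if Even i then q ^ (i + 1) + 1 else q ^ (i + 1) - 1)) =
        (q + 1) * (q ^ 2 - 1) * (q ^ 3 + 1) := by
      rw [Finset.prod_range_succ, Finset.prod_range_succ, Finset.prod_range_one]
      simp
    rw [h3] at h1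
    apply Nat.eq_of_mul_eq_mul_left (show 0 < q + 1 by omega)
    rw [h1]
    norm_num
    ring
  have hcen : Nat.card ↥(Subgroup.centralizer ({t} : Set ↥(Cfsg.SU 3 F q))) = q * (q + 1) * (q ^ 2 - 1) := by
    obtain ⟨g, hg⟩ := exists_conj_dg hF h2 ht ht2
    have h1 := card_centralizer_dg hF h2
    rw [hSU2] at h1
    have h3 : Nat.card ↥(Subgroup.centralizer ({t} : Set ↥(Cfsg.SU 3 F q))) =
        Nat.card (Subgroup.centralizer ({dg hF 0} : Set (SU 3 F q))) := by
      apply Nat.card_congr
      refine Equiv.subtypeEquiv (MulAut.conj g).toEquiv ?_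
      intro y
      simp only [Subgroup.mem_centralizer_singleton_iff, MulEquiv.toEquiv_eq_coe, MulEquiv.coe_toEquiv, MulAut.conj_apply]
      rw [← hg]
      constructor
      · intro h
        calc g * y * g⁻¹ * (g * t * g⁻¹) = g * (y * t) * g⁻¹ := by group
          _ = g * (t * y) * g⁻¹ := by rw [h]
          _ = _ := by group
      · intro h
        calc y * t = g⁻¹ * (g * y * g⁻¹ * (g * t * g⁻¹)) * g := by group
          _ = g⁻¹ * (g * t * g⁻¹ * (g * y * g⁻¹)) * g := by rw [h]
          _ = t * y := by group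
    rw [h3, h1]; ring
  refine ⟨hconj, ?_, hcen, ?_⟩
  · have h1 := Subgroup.card_mul_index (Subgroup.centralizer ({t} : Set ↥(Cfsg.SU 3 F q)))
    have h3 : Nat.card {x : ↥(Cfsg.SU 3 F q) // x ≠ 1 ∧ x * x = 1} =
        (Subgroup.centralizer ({t} : Set ↥(Cfsg.SU 3 F q))).index := by
      rw [← Cfsg.Agent.Blocks.Central.card_isConj t]
      apply Nat.card_congr
      apply Equiv.subtypeEquivRight
      intro x
      constructor
      · rintro ⟨hx, hxx⟩
        exact isConj_iff.2 (hconj x hx hxx)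
      · intro hx
        obtain ⟨g, rfl⟩ := isConj_iff.1 hx
        constructor
        · intro h
          apply ht
          calc t = g⁻¹ * (g * t * g⁻¹) * g := by group
            _ = 1 := by rw [h]; group
        · calc g * t * g⁻¹ * (g * t * g⁻¹) = g * (t * t) * g⁻¹ := by group
            _ = 1 := by rw [ht2]; group
    rw [h3]
    rw [hcen, hSU3] at h1
    have h5 : q ^ 3 + 1 = (q + 1) * (q ^ 2 - q + 1) := by
      have h6 : q ≤ q ^ 2 := Nat.le_self_pow two_ne_zero _
      zify [h6]; ring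
    rw [h5] at h1
    have h6 : 0 < q ^ 2 - 1 := by
      have : 2 ^ 2 ≤ q ^ 2 := Nat.pow_le_pow_left hq2 2
      omega
    generalize q ^ 2 - 1 = s at *
    generalize q ^ 2 - q + 1 = Q at *
    apply Nat.eq_of_mul_eq_mul_left (show 0 < q * (q + 1) * s by positivity)
    rw [h1]; ring
  · intro x hx hxx hxt hc
    obtain ⟨g, hgt, hgx⟩ := exists_conj_lift hF h2 ht2 hxx ht hx hxt.symm hc.eq (a := 0) (b := 1) (c := 2)
      (by decide) (by decide) (by decide)
    rw [Nat.card_eq_one_iff_unique]
    constructor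
    · constructor
      have key : ∀ y : ↥(Cfsg.SU 3 F q), (y ≠ 1 ∧ y * y = 1 ∧ y ≠ t ∧ y ≠ x ∧ Commute t y ∧ Commute x y) →
          g * y * g⁻¹ = dg hF 2 := by
        rintro y ⟨hy1, hyy, hyt, hyx, hty, hxy⟩
        have f1 : g * y * g⁻¹ ≠ 1 := by
          intro h
          apply hy1
          calc y = g⁻¹ * (g * y * g⁻¹) * g := by group
            _ = 1 := by rw [h]; group
        have f2 : g * y * g⁻¹ * (g * y * g⁻¹) = 1 := by
          calc g * y * g⁻¹ * (g * y * g⁻¹) = g * (y * y) * g⁻¹ := by group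
            _ = 1 := by rw [hyy]; group
        have f3 : g * y * g⁻¹ * dg hF 0 = dg hF 0 * (g * y * g⁻¹) := by
          rw [← hgt]
          calc g * y * g⁻¹ * (g * t * g⁻¹) = g * (y * t) * g⁻¹ := by group
            _ = g * (t * y) * g⁻¹ := by rw [hty.eq]
            _ = _ := by group
        have f4 : g * y * g⁻¹ * dg hF 1 = dg hF 1 * (g * y * g⁻¹) := by
          rw [← hgx]
          calc g * y * g⁻¹ * (g * x * g⁻¹) = g * (y * x) * g⁻¹ := by group
            _ = g * (x * y) * g⁻¹ := by rw [hxy.eq]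
            _ = _ := by group
        rcases cases_of_comm hF h2 f1 f2 f3 f4 with h | h | h
        · exfalso; apply hyt
          rw [← hgt] at h; simpa using h
        · exfalso; apply hyx
          rw [← hgx] at h; simpa using h
        · exact h
      rintro ⟨y, hy⟩ ⟨z, hz⟩
      apply Subtype.ext
      have h1 := (key y hy).trans (key z hz).symm
      simpa using h1
    · refine ⟨⟨t * x, ?_, ?_, ?_, ?_, ?_, ?_⟩⟩
      · intro h
        apply hxt
        calc x = t * (t * x) := by rw [← mul_assoc, ht2, one_mul]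
          _ = t := by rw [h, mul_one]
      · calc t * x * (t * x) = t * (x * t) * x := by group
          _ = t * (t * x) * x := by rw [hc.eq]
          _ = (t * t) * (x * x) := by group
          _ = 1 := by rw [ht2, hxx, one_mul]
      · intro h
        exact hx (mul_eq_left.1 h)
      · intro h
        exact ht (mul_eq_right.1 h)
      · exact (Commute.refl t).mul_right hc
      · exact hc.symm.mul_right (Commute.refl x)

end Cfsg.Agent.H125.SU3
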